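import Cfsg.Agent.H31.FeitTh
import Cfsg.Agent.H31.Winter1

/-!
# Brauer–Leonard bound, part 1: local estimates
-/

set_option autoImplicit false

open Cfsg Cfsg.Agent.H53
open scoped ComplexConjugate

namespace Cfsg.Agent.H31

variable {G : Type*} [Group G] [Fintype G]

theorem sum_subgroup_eq_ite (H : Subgroup G) [Fintype H] [DecidablePred (· ∈ H)] (F : G → ℝ) :
    ∑ g : H, F g = ∑ g : G, if g ∈ H then F g else 0 := by
  rw [← Finset.sum_filter]
  exact (Finset.sum_subtype _ (fun x => by simp) F).symm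

theorem ip_self_lt_of_TI (N : Subgroup G) [Fintype N] (Y : Set G) [DecidablePred (· ∈ Y)]
    (hY1 : (1 : G) ∉ Y) (hTI : ∀ g : G, g ∉ N → ∀ t ∈ Y, g * t * g⁻¹ ∈ Y → t = 1)
    (hN : ∀ g ∈ N, ∀ t, g * t * g⁻¹ ∈ Y ↔ t ∈ Y) {f : G → ℂ} (hf : IsClassFunction G f)
    (hf1 : f 1 ≠ 0) :
    ip (fun g : N => if (g : G) ∈ Y then f g else 0)
      (fun g : N => if (g : G) ∈ Y then f g else 0) < ip f f := by
  set δ : N → ℂ := fun g => if (g : G) ∈ Y then f g else 0 with hδ
  have hc : IsClassFunction N δ := fun g h => by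
    simp only [hδ, Subgroup.coe_mul, Subgroup.coe_inv, hN h h.2, hf g h]
  have hv : ∀ x : N, (x : G) ∉ Y → δ x = 0 := fun x hx => if_neg hx
  have h1 : ip (indFun N δ) (indFun N δ) = ip δ δ := congrArg Complex.re
    (H6.classInner_indFun_indFun_of_TI N Y hTI hc hv hv (hv 1 hY1))
  have h2 : ip (indFun N δ) f = ip δ δ := congrArg Complex.re
    ((H6.classInner_indFun_left N δ hf).trans
      (ci_congr_right fun g hg => (if_pos (by_contra fun h => hg (hv g h))).symm))
  have h3 := ip_self_pos (a := f - indFun N δ) fun h => hf1 (by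
    simpa [H6.indFun_apply_one, hv 1 hY1] using congrFun h 1)
  rw [ip_sub_left, ip_sub_right, ip_sub_right, ip_comm f (indFun N δ), h1, h2] at h3
  linarith

theorem ip_res_irr_of_complement {L K : Subgroup G} [Fintype L] (h : L.IsComplement' K)
    (hK : K ≤ Subgroup.center G) {η : G → ℂ} (hη : IsIrrCharacter G η) :
    ip (fun l : L => η l) (fun l : L => η l) = 1 := by
  haveI := Fintype.ofFinite K
  have h1 := irr_ip_self hη
  rw [ip_self_eq, ← (Equiv.ofBijective _ h).sum_comp, Fintype.sum_prod_type,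
    ← h.card_mul_card] at h1
  have h2 : ∀ (l : L) (k : K), ‖η (l * k)‖ = ‖η l‖ := fun l k => by
    obtain ⟨ω, hω, -, hω'⟩ := H5.exists_apply_mul_eq_of_norm_eq (H5.isCharacter_of_isIrr hη)
      (H5.norm_apply_of_mem_center hη (hK k.2))
    rw [Subgroup.mem_center_iff.mp (hK k.2), hω', norm_mul, hω, one_mul]
  have h3 : ∀ (l : L) (k : K), ‖η ((Equiv.ofBijective _ h) (l, k))‖ = ‖η l‖ := h2
  simp only [h3, Finset.sum_const, Finset.card_univ, nsmul_eq_mul, ← Finset.mul_sum,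
    ← Nat.card_eq_fintype_card] at h1
  have hK0 : (Nat.card K : ℝ) ≠ 0 := Nat.cast_ne_zero.mpr Nat.card_pos.ne'
  rw [ip_self_eq, ← h1, Nat.cast_mul, mul_inv, mul_assoc]
  exact congrArg _ (inv_mul_cancel_left₀ hK0 _).symm

theorem ip_le_one_of_norm {a b : G → ℂ} (ha : ip a a = 1) (hb : ip b b = 1) : ip a b ≤ 1 := by
  have := ip_self_nonneg (a - b)
  rw [ip_sub_left, ip_sub_right, ip_sub_right, ip_comm b a] at this
  linarith

/-- The number of non-principal constituents of a character, with multiplicity. -/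
noncomputable def npCount (θ : G → ℂ) : ℝ := by
  classical exact ∑ η ∈ (irrF G).erase fun _ => 1, ip θ η

theorem npCount_add (θ : G → ℂ) : ip θ (fun _ => 1) + npCount θ = ∑ η ∈ irrF G, ip θ η := by
  classical
  exact Finset.add_sum_erase _ (fun η => ip θ η) (mem_irrF.mpr H5.isIrrCharacter_one)

theorem npCount_nonneg {θ : G → ℂ} (hθ : IsCharacter G θ) : 0 ≤ npCount θ :=
  Finset.sum_nonneg fun _ hη =>
    char_ip_nonneg hθ (H5.isCharacter_of_isIrr (mem_irrF.mp (Finset.mem_of_mem_erase hη)))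

theorem npCount_le_of_sub {θ ψ : G → ℂ} (h : IsCharacter G (θ - ψ)) : npCount ψ ≤ npCount θ :=
  Finset.sum_le_sum fun η hη => by
    have := char_ip_nonneg h (H5.isCharacter_of_isIrr (mem_irrF.mp (Finset.mem_of_mem_erase hη)))
    rw [ip_sub_left] at this
    linarith

theorem npCount_le_degree {θ : G → ℂ} (hθ : IsCharacter G θ) :
    ip θ (fun _ => 1) + npCount θ ≤ (θ 1).re := by
  rw [npCount_add, char_degree_eq_sum hθ]
  refine Finset.sum_le_sum fun η hη => le_mul_of_one_le_right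
    (char_ip_nonneg hθ (H5.isCharacter_of_isIrr (mem_irrF.mp hη))) ?_
  obtain ⟨d, hd0, hd⟩ := H5.exists_pos_nat_degree (mem_irrF.mp hη)
  rw [hd, Complex.natCast_re]
  exact_mod_cast hd0

theorem npCount_le_ip {θ : G → ℂ} (hθ : IsCharacter G θ) :
    npCount θ + ip θ (fun _ => 1) ^ 2 ≤ ip θ θ := by
  classical
  rw [virt_ip_eq_sum (virt_of_char hθ) θ,
    ← Finset.add_sum_erase _ _ (mem_irrF.mpr H5.isIrrCharacter_one), ip_comm _ θ, add_comm, sq]
  refine add_le_add_right (Finset.sum_le_sum fun η hη => ?_) _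
  obtain ⟨n, hn⟩ := char_ip_nat hθ
    (H5.isCharacter_of_isIrr (mem_irrF.mp (Finset.mem_of_mem_erase hη)))
  rw [ip_comm η θ, hn]
  exact_mod_cast Nat.le_mul_self n

theorem ip_res_le_of_complement {L K : Subgroup G} [Fintype L] (h : L.IsComplement' K)
    (hK : K ≤ Subgroup.center G) {θ : G → ℂ} (hθ : IsCharacter G θ) {s : ℝ} (hs : 0 ≤ s) :
    ip (fun l : L => θ l + s) (fun l : L => θ l + s) ≤
      (ip θ (fun _ => 1) + s + npCount θ) ^ 2 := by
  have h0 : ∀ η ∈ irrF G, 0 ≤ ip θ η := fun η hη =>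
    char_ip_nonneg hθ (H5.isCharacter_of_isIrr (mem_irrF.mp hη))
  have h1 : ∀ η ∈ irrF G, ip (fun l : L => η l) (fun l : L => η l) = 1 := fun η hη =>
    ip_res_irr_of_complement h hK (mem_irrF.mp hη)
  have h2 : ∀ φ : L → ℂ, ip φ φ = 1 → ip (fun l : L => θ l) φ ≤ ∑ η ∈ irrF G, ip θ η :=
    fun φ hφ => by
      rw [ip_res_eq_sum hθ]
      exact Finset.sum_le_sum fun η hη =>
        mul_le_of_le_one_right (h0 η hη) (ip_le_one_of_norm (h1 η hη) hφ)
  have h3 : ip (fun l : L => θ l) (fun l : L => θ l) ≤ (∑ η ∈ irrF G, ip θ η) ^ 2 := by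
    rw [ip_res_eq_sum hθ, sq, Finset.sum_mul]
    exact Finset.sum_le_sum fun η hη => mul_le_mul_of_nonneg_left
      (by rw [ip_comm]; exact h2 _ (h1 η hη)) (h0 η hη)
  have h4 := h2 _ ip_one_one
  have e : (fun l : L => θ l + s) = (fun l : L => θ l) + s • fun _ => (1 : ℂ) := by
    funext l; simp
  rw [e, ip_add_left, ip_add_right, ip_add_right, ip_rsmul_left, ip_rsmul_left, ip_rsmul_right,
    ip_rsmul_right, ip_one_one, ip_comm (fun _ => 1), add_right_comm (ip θ _), npCount_add]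
  nlinarith

theorem ip_add_const (θ : G → ℂ) (s : ℝ) : ip (fun g => θ g + s) (fun g => θ g + s) =
    ip θ θ + 2 * s * ip θ (fun _ => 1) + s ^ 2 := by
  have e : (fun g => θ g + s) = θ + s • fun _ => (1 : ℂ) := by
    funext l; simp
  rw [e, ip_add_left, ip_add_right, ip_add_right, ip_rsmul_left, ip_rsmul_left, ip_rsmul_right,
    ip_rsmul_right, ip_one_one, ip_comm (fun _ => 1)]
  ring

theorem avg_subgroupOf {P H : Subgroup G} (h : P ≤ H) [Fintype P] [Fintype (P.subgroupOf H)]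
    (f : G → ℂ) (g : H) :
    (Nat.card (P.subgroupOf H) : ℂ)⁻¹ * ∑ k : P.subgroupOf H, f ((k : H) * g : H) =
      (Nat.card P : ℂ)⁻¹ * ∑ k : P, f (k * g) := by
  rw [Nat.card_congr (Subgroup.subgroupOfEquivOfLe h).toEquiv,
    ← Equiv.sum_comp (Subgroup.subgroupOfEquivOfLe h).toEquiv]
  rfl

variable {P C N : Subgroup G} (hPC : P ≤ C) (hCN : C ≤ N)
  (hN : N ≤ Subgroup.normalizer (P : Set G))
  (hf : ∀ g ∈ N, g ∉ C → ∀ k ∈ P, g * k = k * g → k = 1)
include hPC hCN hN hf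

theorem relIndex_le_ip_res [Fintype C] {θ : G → ℂ} (hθ : IsCharacter G θ)
    (hk : ∃ k ∈ P, θ k ≠ θ 1) :
    C.relIndex N + ip (fun g : C => θ g) (fun _ => 1) ^ 2 ≤
      ip (fun g : C => θ g) (fun g : C => θ g) := by
  classical
  haveI := Fintype.ofFinite N
  haveI : (P.subgroupOf N).Normal := (Subgroup.normal_subgroupOf_iff_le_normalizer
    (hPC.trans hCN)).mpr hN
  set A : G → ℂ := fun g => (Nat.card P : ℂ)⁻¹ * ∑ k : P, θ (k * g) with hA
  have hP0 := H5.natCard_ne_zero (G := P)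
  have h1 : IsCharacter N fun g : N => A g := by
    have := isCharacter_avg_normal (P.subgroupOf N) (H5.isCharacter_restrict hθ N)
    simp only [avg_subgroupOf (hPC.trans hCN)] at this
    exact this
  have h2 : 1 ≤ ip (fun g : N => θ g - A g) (fun g : N => θ g - A g) := by
    refine virt_one_le_ip_self (virt_sub (virt_of_char (H5.isCharacter_restrict hθ N))
      (virt_of_char h1)) fun h => ?_
    obtain ⟨k, hk, hne⟩ := hk
    have e1 : θ k - A k = 0 := congrFun h ⟨k, hCN (hPC hk)⟩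
    have e2 : θ 1 - A 1 = 0 := congrFun h 1
    have e3 : A k = A 1 := by
      simp only [hA]
      rw [← Equiv.sum_comp (Equiv.mulRight (⟨k, hk⟩ : P)) fun x : P => θ (x * 1)]
      simp
    exact hne (by rw [sub_eq_zero.mp e1, sub_eq_zero.mp e2, e3])
  have h3 : ∀ g ∈ N, g ∉ C → θ g - A g = 0 := fun g hg hgC => by
    have e1 : ∀ k : P, θ (k * g) = θ g := fun k => by
      obtain ⟨a, -, ha⟩ := H6.exists_conj_eq_mul_of_fpf (P.subgroupOf N) (h := ⟨g, hg⟩)
        (fun k hk e => Subtype.ext (hf g hg hgC k hk (congrArg Subtype.val e)))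
        (k := ⟨k, hCN (hPC k.2)⟩) k.2
      rw [show (k : G) * g = (a : G)⁻¹ * g * a from congrArg Subtype.val ha]
      simpa using H5.isClassFunction_of_isCharacter hθ g (a : G)⁻¹
    simp only [hA, e1]
    rw [Finset.sum_const, Finset.card_univ, ← Nat.card_eq_fintype_card, nsmul_eq_mul,
      inv_mul_cancel_left₀ hP0, sub_self]
  have h4 : ∑ g : N, ‖θ g - A g‖ ^ 2 = ∑ g : C, ‖θ g - A g‖ ^ 2 := by
    rw [sum_subgroup_eq_ite N fun g => ‖θ g - A g‖ ^ 2,
      sum_subgroup_eq_ite C fun g => ‖θ g - A g‖ ^ 2]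
    refine Finset.sum_congr rfl fun g _ => ?_
    by_cases hg : g ∈ C
    · rw [if_pos hg, if_pos (hCN hg)]
    · rw [if_neg hg]
      split_ifs with h
      · rw [h3 g h hg]; simp
      · rfl
  have h5 : (C.relIndex N : ℝ) ≤ ip (fun g : C => θ g - A g) (fun g : C => θ g - A g) := by
    rw [ip_self_eq, h4] at h2
    rw [ip_self_eq, le_inv_mul_iff₀ (Nat.cast_pos.mpr Nat.card_pos)]
    rw [le_inv_mul_iff₀ (Nat.cast_pos.mpr Nat.card_pos), mul_one,
      ← (C.subgroupOf N).card_mul_index,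
      Nat.card_congr (Subgroup.subgroupOfEquivOfLe hCN).toEquiv, Nat.cast_mul] at h2
    exact h2
  set b := ip (fun g : C => θ g) (fun _ => 1) with hb
  have h6 := ip_avg_normal (P.subgroupOf C) fun g : C => θ g + (-b : ℝ)
  have h7 : (fun g : C => (Nat.card (P.subgroupOf C) : ℂ)⁻¹ *
      ∑ k : P.subgroupOf C, (θ ((k : C) * g : C) + (-b : ℝ))) = fun g : C => A g + (-b : ℝ) := by
    funext g
    rw [avg_subgroupOf hPC (fun g => θ g + (-b : ℝ)), Finset.sum_add_distrib, mul_add,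
      Finset.sum_const, Finset.card_univ, ← Nat.card_eq_fintype_card, nsmul_eq_mul,
      inv_mul_cancel_left₀ hP0]
  have h8 : (fun g : C => θ g - A g) =
      (fun g : C => θ g + (-b : ℝ)) - fun g : C => A g + (-b : ℝ) := by
    funext g; simp
  have h9 := ip_self_nonneg fun g : C => A g + (-b : ℝ)
  have h10 := ip_add_const (fun g : C => θ g) (-b)
  rw [h7, ip_sub_right] at h6
  rw [h8, ip_sub_left, ip_sub_right, ip_sub_right, ip_comm _ fun g : C => A g + (-b : ℝ)] at h5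
  rw [← hb] at h10
  nlinarith

theorem relIndex_le_degree (hab : ∀ a ∈ P, ∀ b ∈ P, a * b = b * a) {θ : G → ℂ}
    (hθ : IsCharacter G θ) (hk : ∃ k ∈ P, θ k ≠ θ 1) {d : ℕ} (hd : θ 1 = d) :
    C.relIndex N ≤ d := by
  haveI := Fintype.ofFinite N
  haveI hK : (P.subgroupOf N).Normal := (Subgroup.normal_subgroupOf_iff_le_normalizer
    (hPC.trans hCN)).mpr hN
  haveI := Fintype.ofFinite (P.subgroupOf N)
  obtain ⟨k, hk, hne⟩ := hk
  have hθN := H5.isCharacter_restrict hθ N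
  obtain ⟨ω, hω, h1, h2⟩ := exists_constituent_not_pow (p := 1) hθN (g := ⟨k, hCN (hPC hk)⟩)
    fun c => by simpa using hne
  obtain ⟨μ, hμ, h3, h4⟩ := exists_constituent_not_pow (p := 1) (H5.isCharacter_restrict
    (H5.isCharacter_of_isIrr hω) (P.subgroupOf N)) (g := ⟨⟨k, hCN (hPC hk)⟩, hk⟩)
    fun c => by simpa using h2 0
  obtain ⟨w, hw0, hw⟩ := H5.exists_pos_nat_degree hω
  have hμ1 : μ 1 = (1 : ℕ) := (H5.degree_eq_one_of_comm
    (fun a b => Subtype.ext (Subtype.ext (hab _ a.2 _ b.2))) hμ).trans Nat.cast_one.symm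
  have h5 := degree_dvd_of_normal (P.subgroupOf N) hω hμ h3 hw hμ1
  refine le_trans (Nat.le_of_dvd hw0 (dvd_trans ?_ ((Dvd.intro _ rfl).trans h5)))
    (H6.degree_le_of_constituent hθN hω h1 hd hw)
  refine Subgroup.index_dvd_of_le fun g hg => by_contra fun hgC => h4 0 ?_
  obtain ⟨l, rfl⟩ := H5.exists_monoidHom_of_degree_one (H5.isCharacter_of_isIrr hμ)
    (hμ1.trans Nat.cast_one)
  obtain ⟨a, ha, e⟩ := H6.exists_conj_eq_mul_of_fpf (P.subgroupOf N) (h := g)
    (fun k hk e => Subtype.ext (hf g g.2 hgC k hk (congrArg Subtype.val e)))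
    (k := ⟨k, hCN (hPC hk)⟩) hk
  have e1 := (H6.mem_inertia_iff _).mp hg ⟨a, ha⟩
  have e2 : (⟨⟨k, hCN (hPC hk)⟩, hk⟩ : P.subgroupOf N) =
      ⟨a, ha⟩⁻¹ * ⟨g * a * g⁻¹, hK.conj_mem a ha g⟩ :=
    Subtype.ext (by simp [← mul_assoc, ← e])
  simp only [Units.val_inj] at e1
  simp [e2, e1]

end Cfsg.Agent.H31
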