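import Cfsg.Agent.H31.BL1
import Cfsg.Agent.H3.FrobQuo
import Cfsg.Agent.H81.OrderType

/-!
# Brauer–Leonard bound, part 2: groups with `C(x) = C(P)` for all `1 ≠ x ∈ P`
-/

set_option autoImplicit false

open Cfsg Cfsg.Agent.H53
open scoped ComplexConjugate

namespace Cfsg.Agent.H31

theorem bl_numeric {q e b s W R A : ℝ} (hb : 1 ≤ b) (hs : 0 ≤ s) (he : 1 ≤ e) (hW0 : 0 ≤ W)
    (hW : W ≤ R) (hR : e ≤ R) (hA : A ≤ (b + s + W) ^ 2) (h1 : W ≤ q - 2 * (1 + s) - e)
    (h2 : e ≤ q - 2 * (1 + s) - e)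
    (h3 : e * q * s ^ 2 ≤ (q - 1) * (1 + s) ^ 2 - 2 * e * (1 + s) - e ^ 2) :
    e * q * (1 + s ^ 2) ≤ q * ((b + s) ^ 2 + R) - A := by
  obtain ⟨V, hV1, hV2, hV3, hV4⟩ : ∃ V, W ≤ V ∧ e ≤ V ∧ V ≤ R ∧ V ≤ q - 2 * (1 + s) - e :=
    ⟨max W e, le_max_left _ _, le_max_right _ _, max_le hW hR, max_le h1 h2⟩
  have e1 : (b + s + W) ^ 2 ≤ (b + s + V) ^ 2 := pow_le_pow_left₀ (by linarith) (by linarith) 2
  have e2 : q * V ≤ q * R := mul_le_mul_of_nonneg_left hV3 (by linarith)
  have e3 : 0 ≤ (V - e) * (q - 2 * (1 + s) - e - V) := mul_nonneg (by linarith) (by linarith)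
  have e4 : 2 * V ≤ (q - 1) * (b + s + (1 + s)) := by nlinarith
  have e5 : 0 ≤ (b - 1) * ((q - 1) * (b + s + (1 + s)) - 2 * V) :=
    mul_nonneg (by linarith) (by linarith)
  nlinarith

variable {G : Type*} [Group G] [Fintype G] {p : ℕ} [Fact p.Prime] (P : Sylow p G)
  (hstar : ∀ x ∈ (P : Subgroup G), x ≠ 1 →
    Subgroup.centralizer ({x} : Set G) = Subgroup.centralizer ((P : Subgroup G) : Set G))
include hstar

omit [Fintype G] [Fact p.Prime] in
theorem star_le_centralizer :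
    (P : Subgroup G) ≤ Subgroup.centralizer ((P : Subgroup G) : Set G) := fun x hx => by
  by_cases h : x = 1
  · exact h ▸ one_mem _
  · exact hstar x hx h ▸ Subgroup.mem_centralizer_singleton_iff.mpr rfl

theorem star_TI {g x : G} (hx : x ∈ (P : Subgroup G)) (hx1 : x ≠ 1)
    (hg : g * x * g⁻¹ ∈ (P : Subgroup G)) :
    g ∈ Subgroup.normalizer ((P : Subgroup G) : Set G) := by
  have hPC := star_le_centralizer P hstar
  have hn : (P.subtype hPC).toSubgroup.Normal := ⟨fun a ha c => by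
    have : c * a * c⁻¹ = a := Subtype.ext (by
      rw [Subgroup.coe_mul, Subgroup.coe_mul, ← c.2 a ha]; simp)
    rwa [this]⟩
  refine Subgroup.mem_normalizer_fintype fun y hy => ?_
  have h1 : g * y * g⁻¹ ∈ Subgroup.centralizer ((P : Subgroup G) : Set G) := by
    rw [← hstar _ hg (by simpa using hx1), Subgroup.mem_centralizer_singleton_iff]
    simp only [mul_assoc, inv_mul_cancel_left]
    rw [← mul_assoc y, ← hPC hy x hx, mul_assoc]
  obtain ⟨k, hk⟩ := P.isPGroup' ⟨y, hy⟩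
  exact H81.mem_sylow_of_normal (P.subtype hPC) hn (g := ⟨_, h1⟩) (k := k) (Subtype.ext (by
    simp [show y ^ p ^ k = 1 from congrArg Subtype.val hk]))

theorem star_exists_complement : ∃ L : Subgroup (Subgroup.centralizer ((P : Subgroup G) : Set G)),
    L.IsComplement' ((P : Subgroup G).subgroupOf _) := by
  have hPC := star_le_centralizer P hstar
  exact ⟨_, MonoidHom.ker_transferSylow_isComplement' (P.subtype hPC) fun c _ a ha =>
    Subtype.ext (c.2 a ha)⟩

theorem star_ip_lt {C : Subgroup G} (hC : C = Subgroup.centralizer ((P : Subgroup G) : Set G))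
    [Fintype C] {L : Subgroup C} [Fintype L]
    (hL : L.IsComplement' ((P : Subgroup G).subgroupOf C)) {f : G → ℂ}
    (hf : IsClassFunction G f) (hf1 : f 1 ≠ 0) :
    Nat.card P * ip (fun g : C => f g) (fun g => f g) - ip (fun g : L => f g) (fun g => f g) <
      C.relIndex (Subgroup.normalizer ((P : Subgroup G) : Set G)) * Nat.card P * ip f f := by
  classical
  have hPC : (P : Subgroup G) ≤ C := hC ▸ star_le_centralizer P hstar
  have hCm : ∀ {c}, c ∈ C ↔ ∀ y ∈ (P : Subgroup G), y * c = c * y := hC ▸ Iff.rfl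
  set N := Subgroup.normalizer ((P : Subgroup G) : Set G) with hN
  have hCN : C ≤ N := hC ▸ Subgroup.centralizer_le_normalizer _
  set m := Nat.card L with hm
  have hcard : m * Nat.card P = Nat.card C := by
    rw [← hL.card_mul_card, Nat.card_congr (Subgroup.subgroupOfEquivOfLe hPC).toEquiv]
  have hcop : ¬ p ∣ m := by
    rw [hm, ← hL.index_eq_card]
    exact (P.subtype hPC).not_dvd_index
  have hdec : ∀ c : C, ∃ x ∈ (P : Subgroup G), (c : G) ^ m = x ^ m ∧ (c ∈ L ↔ x = 1) := by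
    intro c
    obtain ⟨⟨l, x⟩, rfl⟩ := hL.2 c
    refine ⟨x, x.2, ?_, fun h => ?_, fun h => ?_⟩
    · have e : Commute ((l : C) : G) ((x : C) : G) := (hCm.mp (l : C).2 _ x.2).symm
      have e2 : ((l : C) : G) ^ m = 1 :=
        congrArg (fun y : L => ((y : C) : G)) (pow_card_eq_one' (x := (⟨l, l.2⟩ : L)))
      simp only [Subgroup.coe_mul]
      rw [e.mul_pow, e2, one_mul]
    · exact congrArg Subtype.val (Subgroup.disjoint_def.mp hL.disjoint
        ((L.mul_mem_cancel_left l.2).mp h) x.2)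
    · exact L.mul_mem l.2 ((Subtype.ext h : (x : C) = 1) ▸ L.one_mem)
  have hpow : ∀ x ∈ (P : Subgroup G), x ^ m = 1 → x = 1 := fun x hx h => by
    obtain ⟨k, hk⟩ := P.isPGroup' ⟨x, hx⟩
    exact orderOf_eq_one_iff.mp (Nat.eq_one_of_dvd_coprimes
      (((Nat.Prime.coprime_iff_not_dvd Fact.out).mpr hcop).pow_left k)
      (orderOf_dvd_of_pow_eq_one (congrArg Subtype.val hk)) (orderOf_dvd_of_pow_eq_one h))
  have hCconj : ∀ g ∈ N, ∀ t ∈ C, g * t * g⁻¹ ∈ C := fun g hg t ht => hCm.mpr fun y hy => by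
    have := hCm.mp ht _ ((Subgroup.mem_normalizer_iff.mp (N.inv_mem hg) y).mp hy)
    calc y * (g * t * g⁻¹) = g * (g⁻¹ * y * g⁻¹⁻¹ * t) * g⁻¹ := by group
      _ = _ := by rw [this]; group
  have h := ip_self_lt_of_TI N {t | t ∈ C ∧ t ^ m ≠ 1} (fun h => h.2 (one_pow m))
    (fun g hg t ht hgt => by
      obtain ⟨x, hx, e1, -⟩ := hdec ⟨t, ht.1⟩
      obtain ⟨y, hy, e2, -⟩ := hdec ⟨_, hgt.1⟩
      refine absurd (star_TI P hstar (x := t ^ m) (e1 ▸ pow_mem hx m) ht.2 ?_) hg
      rw [← conj_pow]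
      exact e2 ▸ pow_mem hy m)
    (fun g hg t => and_congr ⟨fun h => by simpa [mul_assoc] using hCconj _ (N.inv_mem hg) _ h,
      hCconj g hg t⟩ (by simp)) hf hf1
  have e1 : ∑ g : N, ‖if (g : G) ∈ {t | t ∈ C ∧ t ^ m ≠ 1} then f g else 0‖ ^ 2 =
      ∑ g : C, ‖f g‖ ^ 2 - ∑ g : L, ‖f g‖ ^ 2 := by
    rw [sum_subgroup_eq_ite L fun g => ‖f g‖ ^ 2, ← Finset.sum_sub_distrib,
      sum_subgroup_eq_ite N fun g => ‖if g ∈ {t | t ∈ C ∧ t ^ m ≠ 1} then f g else 0‖ ^ 2]
    refine Eq.trans (Finset.sum_congr rfl fun g _ => ?_) ((sum_subgroup_eq_ite C fun g =>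
      ‖if g ∈ {t | t ∈ C ∧ t ^ m ≠ 1} then f g else 0‖ ^ 2).symm.trans
      (Finset.sum_congr rfl fun c _ => ?_))
    · by_cases hg : g ∈ C
      · rw [if_pos hg, if_pos (hCN hg)]
      · simp [hg]
    · obtain ⟨x, hx, e1, e2⟩ := hdec c
      by_cases hc : c ∈ L
      · simp [hc, e1, e2.mp hc]
      · rw [if_neg hc, if_pos ⟨c.2, fun h => hc (e2.mpr (hpow x hx (e1 ▸ h)))⟩, sub_zero]
  have e2 : Nat.card N = m * Nat.card P * C.relIndex N := by
    rw [hcard, ← (C.subgroupOf N).card_mul_index,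
      Nat.card_congr (Subgroup.subgroupOfEquivOfLe hCN).toEquiv]
    rfl
  have hm0 : (0 : ℝ) < m := Nat.cast_pos.mpr Nat.card_pos
  have hP0 : (0 : ℝ) < Nat.card P := Nat.cast_pos.mpr Nat.card_pos
  rw [ip_self_eq, e1, inv_mul_lt_iff₀ (Nat.cast_pos.mpr Nat.card_pos), e2] at h
  rw [ip_self_eq, ip_self_eq, ← hcard, ← hm]
  push_cast at h ⊢
  rw [mul_inv, mul_comm (m : ℝ)⁻¹, ← mul_assoc, mul_inv_cancel_left₀ hP0.ne', ← mul_sub,
    inv_mul_lt_iff₀ hm0]
  linarith

theorem brauer_leonard {χ : G → ℂ} (hχ : IsIrrCharacter G χ) (h1 : χ ≠ fun _ => 1) {d : ℕ}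
    (hd : χ 1 = d) (hdq : d ^ 2 + 1 < Nat.card P)
    (hM : ∀ K : Subgroup G, K.Normal → (P : Subgroup G) ≤ K → K = ⊤) :
    d = 1 ∧ Subgroup.normalizer ((P : Subgroup G) : Set G) ≤
      Subgroup.centralizer ((P : Subgroup G) : Set G) := by
  classical
  have hPC := star_le_centralizer P hstar
  have hL := star_exists_complement P hstar
  set C := Subgroup.centralizer ((P : Subgroup G) : Set G) with hC
  obtain ⟨L, hL⟩ := hL
  have hlt := fun f => star_ip_lt P (fun x hx h => hstar x hx h) hC hL (f := f)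
  set N := Subgroup.normalizer ((P : Subgroup G) : Set G) with hN
  have hCN : C ≤ N := Subgroup.centralizer_le_normalizer _
  have hf : ∀ g ∈ N, g ∉ C → ∀ k ∈ (P : Subgroup G), g * k = k * g → k = 1 :=
    fun g _ hg k hk e => by_contra fun h =>
      hg (hstar k hk h ▸ Subgroup.mem_centralizer_singleton_iff.mpr e)
  have hker : ∀ ψ, IsIrrCharacter G ψ → ψ ≠ (fun _ => 1) → ∃ k ∈ (P : Subgroup G), ψ k ≠ ψ 1 :=
    fun ψ hψ hψ1 => by
      by_contra hk
      push Not at hk
      have hψc := H5.isCharacter_of_isIrr hψ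
      exact hψ1 (H5.eq_one_of_forall_eq_degree hψ fun g => (H5.mem_charKer hψc).mp
        (hM _ (H5.instNormalCharKer hψc) hk ▸ Subgroup.mem_top g))
  have hc := H5.isCharacter_of_isIrr hχ
  have hcC := H5.isCharacter_restrict hc C
  have hed := relIndex_le_degree hPC hCN le_rfl hf (fun a ha b hb => hPC hb a ha) hc
    (hker χ hχ h1) hd
  have hdvd : C.relIndex N ∣ Nat.card P - 1 := H3.relIndex_dvd_card_sub_one le_rfl
    fun h hh h1 => inf_le_right.trans (hstar h hh h1).le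
  have he0 : C.relIndex N ≠ 0 := Subgroup.index_ne_zero_of_finite
  obtain ⟨m, hm⟩ := char_ip_nat hcC hcC
  have hem : C.relIndex N ≤ m := by
    have := relIndex_le_ip_res hPC hCN le_rfl hf hc (hker χ hχ h1)
    rw [hm] at this
    exact_mod_cast (le_add_of_nonneg_right (sq_nonneg _)).trans this
  have hZ : (P : Subgroup G).subgroupOf C ≤ Subgroup.center C := fun k hk =>
    Subgroup.mem_center_iff.mpr fun c => Subtype.ext (c.2 _ hk).symm
  set e := C.relIndex N with he
  by_cases hm1 : m = 1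
  · refine ⟨?_, Subgroup.relIndex_eq_one.mp (by omega)⟩
    have hirr := irr_of_char_norm_one hcC (by rw [hm, hm1, Nat.cast_one])
    have h2 := hM _ (H5.instNormalCharCenter hc) fun k hk => (H5.mem_charCenter hc).mpr
      (H5.norm_apply_of_mem_center hirr (hZ (show (⟨k, hPC hk⟩ : C) ∈ _ from hk)))
    have h3 := irr_ip_self hχ
    rw [ip_self_eq, Finset.sum_congr rfl fun g _ => by
        rw [(H5.mem_charCenter hc).mp (h2 ▸ Subgroup.mem_top g), hd, Complex.norm_natCast],
      Finset.sum_const, Finset.card_univ, ← Nat.card_eq_fintype_card, nsmul_eq_mul,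
      inv_mul_cancel_left₀ (Nat.cast_ne_zero.mpr Nat.card_pos.ne')] at h3
    exact (Nat.pow_eq_one.mp (by exact_mod_cast h3)).resolve_right two_ne_zero
  exfalso
  have hY : IsCharacter G fun g => χ g * conj (χ g) := H5.isCharacter_mul hc (char_conjFun hc)
  have hY1 : ip (fun g => χ g * conj (χ g)) (fun _ => 1) = 1 := ip_of_ci (r := 1)
    (ip_mul_conj_linear (K := ⊤) (fun g hg => absurd (Subgroup.mem_top g) hg) hχ fun _ _ => rfl)
  have hYC : ip (fun h : C => χ h * conj (χ h)) (fun _ => 1) = m := by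
    refine Eq.trans (congrArg Complex.re ?_) hm
    rw [H5.classInner_one_right]
    rfl
  obtain ⟨ψ, hψ1, hψ, h2, h3⟩ : ∃ ψ, ψ ≠ (fun _ => 1) ∧ IsIrrCharacter G ψ ∧
      ip (fun g => χ g * conj (χ g)) ψ ≠ 0 ∧ ip (fun h : C => ψ h) (fun _ => 1) ≠ 0 := by
    by_contra hn
    push Not at hn
    have e2 := ip_res_eq_sum hY C fun _ => 1
    rw [← Finset.add_sum_erase _ _ (mem_irrF.mpr H5.isIrrCharacter_one), hY1, ip_one_one, hYC,
      Finset.sum_eq_zero fun ψ hψ => mul_eq_zero.mpr (or_iff_not_imp_left.mpr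
        (hn ψ (Finset.mem_erase.mp hψ).1 (mem_irrF.mp (Finset.mem_erase.mp hψ).2)))] at e2
    rw [mul_one, add_zero] at e2
    exact hm1 (by exact_mod_cast e2)
  have hψc := H5.isCharacter_of_isIrr hψ
  have hψC := H5.isCharacter_restrict hψc C
  obtain ⟨b, hb⟩ := char_ip_nat hψC H5.isCharacter_one
  have hb1 : (1 : ℝ) ≤ b := by
    rw [hb, Nat.cast_ne_zero] at h3
    exact_mod_cast Nat.one_le_iff_ne_zero.mpr h3
  have hW : npCount (fun h : C => ψ h) ≤ d ^ 2 - m := by
    have e1 := npCount_le_of_sub (θ := fun h : C => χ h * conj (χ h)) (ψ := fun h : C => ψ h)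
      (H5.isCharacter_restrict (H5.isCharacter_sub_of_constituent hY hψ
        fun h => h2 (ip_eq_zero_of_ci h)) C)
    have e2 := npCount_le_degree (H5.isCharacter_restrict hY C)
    rw [hYC, OneMemClass.coe_one, hd, map_natCast, ← Nat.cast_mul, Complex.natCast_re] at e2
    push_cast at e2
    linarith
  have hW0 := npCount_nonneg hψC
  have key : ∀ s : ℝ, 0 ≤ s → npCount (fun h : C => ψ h) ≤ Nat.card P - 2 * (1 + s) - e →
      (e : ℝ) ≤ Nat.card P - 2 * (1 + s) - e → (e : ℝ) * Nat.card P * s ^ 2 ≤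
        (Nat.card P - 1) * (1 + s) ^ 2 - 2 * e * (1 + s) - e ^ 2 → False := by
    intro s hs k1 k2 k3
    have k4 := hlt (fun g => ψ g + s) (fun g h => by
      simp only [H5.isClassFunction_of_isIrr hψ g h]) fun h => by
      have := congrArg Complex.re h
      have := irr_degree_re_pos hψ
      simp only [Complex.add_re, Complex.ofReal_re, Complex.zero_re] at *
      linarith
    rw [ip_add_const ψ, ip_add_const fun h : C => ψ h, irr_ip_self hψ,
      irr_ip_ne hψ H5.isIrrCharacter_one hψ1, hb] at k4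
    have k5 := ip_res_le_of_complement hL hZ hψC hs
    have k6 := npCount_le_ip hψC
    have k7 := relIndex_le_ip_res hPC hCN le_rfl hf hψc (hker ψ hψ hψ1)
    rw [hb] at k5 k6 k7
    have := bl_numeric (R := ip (fun h : C => ψ h) (fun h : C => ψ h) - b ^ 2) hb1 hs
      (by exact_mod_cast Nat.one_le_iff_ne_zero.mpr he0) hW0 (by linarith) (by linarith) k5 k1 k2 k3
    nlinarith
  have hq : (d : ℝ) ^ 2 + 2 ≤ Nat.card P := by exact_mod_cast hdq
  have hem' : (e : ℝ) ≤ m := by exact_mod_cast hem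
  have he1 : (1 : ℝ) ≤ e := by exact_mod_cast Nat.one_le_iff_ne_zero.mpr he0
  by_cases hcase : (e + 1) ^ 2 ≤ Nat.card P
  · have hcase' : ((e : ℝ) + 1) ^ 2 ≤ Nat.card P := by exact_mod_cast hcase
    exact key 0 le_rfl (by linarith) (by nlinarith) (by nlinarith)
  · obtain ⟨t, ht⟩ := hdvd
    have hde : d = e := by nlinarith
    have ht1 : e < t := by
      by_contra h
      have := Nat.mul_le_mul_left e (not_lt.mp h)
      rw [hde, sq] at hdq
      omega
    have ht2 : t < e + 2 := by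
      by_contra h
      have := Nat.mul_le_mul_left e (not_lt.mp h)
      exact hcase (by rw [add_sq, sq]; rw [mul_add] at this; omega)
    have hq' : (Nat.card P : ℝ) = e ^ 2 + e + 1 := by
      have : Nat.card P = e ^ 2 + e + 1 := by
        rw [show t = e + 1 by omega, mul_add, ← sq] at ht
        omega
      exact_mod_cast this
    have he2 : (2 : ℝ) ≤ e := by
      by_contra h
      have h4 : e = 1 := by
        have : e < 2 := by exact_mod_cast not_le.mp h
        omega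
      have h5 : (2 : ℝ) ≤ m := by exact_mod_cast (by omega : 2 ≤ m)
      rw [hde, h4] at hW
      norm_num at hW
      linarith
    have hs : (e : ℝ)⁻¹ ≤ 1 / 2 := by
      rw [one_div]
      exact inv_anti₀ two_pos he2
    rw [hde] at hW
    refine key (e : ℝ)⁻¹ (by positivity) (by nlinarith) (by nlinarith) (le_of_eq ?_)
    rw [hq']
    field_simp
    ring

end Cfsg.Agent.H31
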